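import Cfsg.Agent.S0799

/-!
# Dickson's theorem: the transitive case with its normal form (helper917)
-/

set_option autoImplicit false
set_option linter.unusedSectionVars false
set_option linter.unusedVariables false

namespace Cfsg.Agent.H917.Dk

open Matrix MulAction OnePoint Matrix.SpecialLinearGroup
open Cfsg.Agent.ClassicalGeometry.PoleCount Cfsg.Agent.ClassicalGeometry.PoleCount.Pole
open Cfsg.Agent.ClassicalGeometry.PoleBridge
open Cfsg.Agent.ClassicalGeometry.PoleCases Cfsg.Agent.ClassicalGeometry.DicksonWild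
open Cfsg.Agent.ClassicalGeometry.PSL2Basic Cfsg.Agent.ClassicalGeometry.PSL2ElemOrder
open Cfsg.Agent.Lib.Mobius
open Cfsg.Agent.ClassicalGeometry.SplitTorus
open Cfsg.Agent.ClassicalGeometry.DicksonSubfield
open Cfsg.Agent.S0799

variable {F : Type*} [Field F] [DecidableEq F]

/-- Dickson's theorem with the transitive case made explicit. -/
theorem dickson_trans [Fintype F] (p : ℕ) [Fact p.Prime] [CharP F p]
    (H : Subgroup (ProjectiveSpecialLinearGroup (Fin 2) F)) :
    IsCyclic H ∨ (∃ k : ℕ, Nonempty (H ≃* DihedralGroup k)) ∨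
    Nonempty (H ≃* alternatingGroup (Fin 4)) ∨ Nonempty (H ≃* Equiv.Perm (Fin 4)) ∨
    Nonempty (H ≃* alternatingGroup (Fin 5)) ∨
    (∃ x₀ ∈ OpF p H, ∀ x ∈ OpF p H, x = x₀) ∨
    (∃ x ∈ OpF p H, ∃ y ∈ OpF p H, x ≠ y ∧ Trans p H) := by
  classical
  let K := AlgebraicClosure F
  haveI : CharP K p := charP_of_injective_algebraMap (algebraMap F K).injective p
  let ι : F →+* K := algebraMap F K
  let φ : H →* Matrix.ProjectiveSpecialLinearGroup (Fin 2) K := (pslMap ι).comp H.subtype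
  have hφ : Function.Injective φ := (pslMap_injective ι).comp H.subtype_injective
  letI := act φ
  have pole : Pole p K H (OnePoint K) := pole_of_injective p φ hφ
  have hact : ∀ (g : H) (x : OnePoint K), g • x = pslPerm K (pslMap ι (g : _)) x := fun _ _ => rfl
  have hrat : ∀ x ∈ Op p H (OnePoint K), ∃ x' ∈ OpF p H, OnePoint.map ι x' = x := by
    rintro x ⟨v, hv1, hvp, hvx⟩
    have hvp' : (v : Matrix.ProjectiveSpecialLinearGroup (Fin 2) F) ^ p = 1 :=
      congrArg Subtype.val hvp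
    obtain ⟨x', hx'⟩ := exists_fix_rational p _ hvp'
    refine ⟨x', ⟨v, v.2, fun h => hv1 (Subtype.ext h), hvp', hx'⟩, ?_⟩
    obtain ⟨y, hy⟩ := pole.one v hv1 hvp
    rw [(hy x).mp hvx]
    apply (hy _).mp
    rw [hact, pslPerm_map, hx']
  have hOp : ∀ x ∈ OpF p H, OnePoint.map ι x ∈ Op p H (OnePoint K) := by
    rintro x ⟨v, hvH, hv1, hvp, hvx⟩
    refine ⟨⟨v, hvH⟩, fun h => hv1 (congrArg Subtype.val h), Subtype.ext hvp, ?_⟩
    rw [hact, pslPerm_map, hvx]
  by_cases hp : p ∣ Nat.card H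
  · -- the wild case
    obtain ⟨u, hu⟩ := exists_prime_orderOf_dvd_card' p hp
    have hup : u ^ p = 1 := by rw [← hu]; exact pow_orderOf_eq_one u
    have hu1 : u ≠ 1 := by
      rintro rfl
      rw [orderOf_one] at hu
      exact (Fact.out : p.Prime).one_lt.ne hu
    obtain ⟨x₀, hx₀⟩ := pole.one u hu1 hup
    have hx₀' : x₀ ∈ Op p H (OnePoint K) := ⟨u, hu1, hup, (hx₀ x₀).mpr rfl⟩
    obtain ⟨a, ha, hax⟩ := hrat x₀ hx₀'
    by_cases hone : ∀ x ∈ Op p H (OnePoint K), x = x₀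
    · right; right; right; right; right; left
      refine ⟨a, ha, fun x hx => ?_⟩
      have h1 := hone _ (hOp x hx)
      rw [← hax] at h1
      exact S0799.map_injective ι h1
    · push Not at hone
      obtain ⟨x₁, hx₁, hne⟩ := hone
      rcases wild_cases pole hx₀' hx₁ (Ne.symm hne) with htr | ⟨k, hk0, hk, hd⟩ | hA5
      · -- transfer to the projective line over `F`
        right; right; right; right; right; right
        have hTr : Trans p H := by
          intro x hx y hy z hz hyx hzx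
          obtain ⟨g, hgp, hgx, hgy⟩ := htr _ (hOp x hx) _ (hOp y hy) _ (hOp z hz)
            (fun h => hyx (S0799.map_injective ι h)) (fun h => hzx (S0799.map_injective ι h))
          refine ⟨g, g.2, congrArg Subtype.val hgp, ?_, ?_⟩
          · apply S0799.map_injective ι
            rw [← pslPerm_map, ← hact, hgx]
          · apply S0799.map_injective ι
            rw [← pslPerm_map, ← hact, hgy]
        obtain ⟨b, hb, hbx⟩ := hrat x₁ hx₁
        have hab : a ≠ b := by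
          rintro rfl
          exact hne (hbx.symm.trans hax)
        exact ⟨a, ha, b, hb, hab, hTr⟩
      · right; left
        exact ⟨k, hd⟩
      · right; right; right; right; left
        exact hA5
  · -- the tame case
    have hpow : ∀ g : H, g ≠ 1 → g ^ p ≠ 1 := by
      intro g hg hgp
      apply hp
      rw [← orderOf_eq_prime hgp hg]
      exact orderOf_dvd_natCard g
    have hcyc : ∀ x : OnePoint K, IsCyclic (stabilizer H x) := by
      intro x
      obtain ⟨χ, hχ⟩ := pole.chi x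
      have hinj : Function.Injective χ := by
        rw [injective_iff_map_eq_one]
        intro g hg
        by_contra hne
        have h1 := (hχ g).mp hg
        exact hpow g (fun h => hne (Subtype.ext h)) (congrArg Subtype.val h1)
      have hcoe : Function.Injective (Units.coeHom K) := Units.val_injective
      exact isCyclic_of_injective_ringHom ((Units.coeHom K).comp χ) (hcoe.comp hinj)
    rcases Cfsg.Agent.ClassicalGeometry.PolePrime.pole_prime
      (fun (g : H) hg => pole.two g (hpow g hg)) hcyc with h1 | ⟨k, hk, h1⟩ | h1 | h1 | h1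
    · exact Or.inl h1
    · exact Or.inr (Or.inl ⟨k, h1⟩)
    · exact Or.inr (Or.inr (Or.inl h1))
    · exact Or.inr (Or.inr (Or.inr (Or.inl h1)))
    · exact Or.inr (Or.inr (Or.inr (Or.inr (Or.inl h1))))

/-- The normal form, normalised case. -/
theorem normalised' [Fintype F] (p : ℕ) [Fact p.Prime] [CharP F p]
    (H : Subgroup (ProjectiveSpecialLinearGroup (Fin 2) F))
    (hinf : ∞ ∈ OpF p H) (hzero : ((0 : F) : OnePoint F) ∈ OpF p H) (htr : Trans p H) :
    ∃ (c : GL (Fin 2) F) (k : Subfield F),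
      (∀ a ∈ k, ProjGenLinGroup.mk (c * toGL (up a) * c⁻¹) ∈ H.map ProjectiveSpecialLinearGroup.toPGL) ∧
      (∀ a ∈ k, ProjGenLinGroup.mk (c * toGL (lo a) * c⁻¹) ∈ H.map ProjectiveSpecialLinearGroup.toPGL) ∧
      (∀ g : GL (Fin 2) F, ProjGenLinGroup.mk (c * g * c⁻¹) ∈ H.map ProjectiveSpecialLinearGroup.toPGL →
        ∃ s : F, s ≠ 0 ∧ ∀ i j, s * g i j ∈ k) := by
  obtain ⟨u, huH, hu1, hup, hux⟩ := id hinf
  obtain ⟨v, hvH, hv1, hvp, hvx⟩ := id hzero
  obtain ⟨a₀, rfl⟩ := exists_up p u hup hux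
  obtain ⟨c₀, rfl⟩ := exists_lo p v hvp hvx
  have ha₀ : a₀ ≠ 0 := by
    rintro rfl
    rw [up_zero] at hu1
    exact hu1 rfl
  have hc₀ : c₀ ≠ 0 := by
    rintro rfl
    apply hv1
    have h1 : lo (0 : F) = 1 := by apply ext2 <;> simp
    rw [h1]
    rfl
  set a : Fˣ := Units.mk0 a₀ ha₀ with hadef
  have hav : (a : F) = a₀ := rfl
  set H₁ : Subgroup (ProjGenLinGroup (Fin 2) F) := H.map ProjectiveSpecialLinearGroup.toPGL with hH₁
  set G : Subgroup (GL (Fin 2) F) := H₁.comap (psi a) with hG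
  -- upper unipotents
  have hup' : ∀ b : F, cl (up (a₀ * b)) ∈ H → toGL (up b) ∈ G := by
    intro b hb
    rw [hG, Subgroup.mem_comap]
    refine ⟨_, hb, ?_⟩
    rw [ProjectiveSpecialLinearGroup.toPGL_mk]
    refine (psi_eq_of a _ _ ?_ ?_ ?_ ?_).symm
    · simp only [toGL_apply, up00]; ring
    · simp only [toGL_apply, up01]; rw [hav]
    · simp only [toGL_apply, up10]; ring
    · simp only [toGL_apply, up11]
  have h1 : toGL (up (1 : F)) ∈ G := hup' 1 (by rw [mul_one]; exact huH)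
  have hl : toGL (lo (c₀ * a₀)) ∈ G := by
    rw [hG, Subgroup.mem_comap]
    refine ⟨_, hvH, ?_⟩
    rw [ProjectiveSpecialLinearGroup.toPGL_mk]
    refine (psi_eq_of a _ _ ?_ ?_ ?_ ?_).symm
    · simp only [toGL_apply, lo00]; ring
    · simp only [toGL_apply, lo01]; ring
    · simp only [toGL_apply, lo10]; rw [hav]
    · simp only [toGL_apply, lo11]
  have horb : ∀ g ∈ G, g 1 0 ≠ 0 → toGL (up (g 0 0 / g 1 0)) ∈ G := by
    intro g hg hg10
    rw [hG, Subgroup.mem_comap] at hg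
    obtain ⟨h, hh, hhg⟩ := hg
    obtain ⟨A, rfl⟩ := exists_rep h
    rw [ProjectiveSpecialLinearGroup.toPGL_mk, psi_apply, ProjGenLinGroup.mk_eq_mk_iff] at hhg
    obtain ⟨t, ht⟩ := hhg
    rw [eq_mul_inv_iff_mul_eq] at ht
    have d00 : (GeneralLinearGroup.mkOfDetNeZero !![(a : F), 0; 0, 1] (by simp)) 0 0 = (a : F) :=
      rfl
    have d01 : (GeneralLinearGroup.mkOfDetNeZero !![(a : F), 0; 0, 1] (by simp)) 0 1 = (0 : F) :=
      rfl
    have d10 : (GeneralLinearGroup.mkOfDetNeZero !![(a : F), 0; 0, 1] (by simp)) 1 0 = (0 : F) :=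
      rfl
    have d11 : (GeneralLinearGroup.mkOfDetNeZero !![(a : F), 0; 0, 1] (by simp)) 1 1 = (1 : F) :=
      rfl
    have s00 : (GeneralLinearGroup.scalar (Fin 2) t) 0 0 = (t : F) := by
      rw [GeneralLinearGroup.coe_scalar]; simp
    have s01 : (GeneralLinearGroup.scalar (Fin 2) t) 0 1 = (0 : F) := by
      rw [GeneralLinearGroup.coe_scalar]; simp
    have s10 : (GeneralLinearGroup.scalar (Fin 2) t) 1 0 = (0 : F) := by
      rw [GeneralLinearGroup.coe_scalar]; simp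
    have s11 : (GeneralLinearGroup.scalar (Fin 2) t) 1 1 = (t : F) := by
      rw [GeneralLinearGroup.coe_scalar]; simp
    have e00 := congrArg (fun M : GL (Fin 2) F => M 0 0) ht
    have e10 := congrArg (fun M : GL (Fin 2) F => M 1 0) ht
    simp only [gl_mul00, gl_mul10, gl_mul11, gl_mul01, d00, d01, d10, d11, s00, s01, s10, s11,
      toGL_apply] at e00 e10
    have ht0 : (t : F) ≠ 0 := t.ne_zero
    have e00' : A 0 0 * t = g 0 0 := by
      have h2 : (a : F) ≠ 0 := a.ne_zero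
      apply mul_left_cancel₀ h2
      linear_combination e00
    have e10' : A 1 0 * t * a = g 1 0 := by linear_combination e10
    have hA10 : A 1 0 ≠ 0 := by
      intro h0
      rw [h0, zero_mul, zero_mul] at e10'
      exact hg10 e10'.symm
    -- the image of `∞`
    have hz : pslPerm F (cl A) ∞ = ((A 0 0 / A 1 0 : F) : OnePoint F) := by
      rw [pslPerm_mk, slHom_infty, if_neg hA10]
    have hzmem : ((A 0 0 / A 1 0 : F) : OnePoint F) ∈ OpF p H := by
      rw [← hz]
      exact smul_mem_OpF p hinf hh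
    obtain ⟨g', hg'H, hg'p, hg'x, hg'y⟩ := htr ∞ hinf _ hzero _ hzmem (coe_ne_infty _)
      (coe_ne_infty _)
    obtain ⟨b, rfl⟩ := exists_up p g' hg'p hg'x
    rw [pslPerm_up_zero, coe_eq_coe] at hg'y
    apply hup'
    have h3 : a₀ * (g 0 0 / g 1 0) = b := by
      rw [hg'y, ← e00', ← e10', hav]
      field_simp
    rw [h3]
    exact hg'H
  obtain ⟨k, hk1, hk2, hk3⟩ := exists_subfield G h1 _ (mul_ne_zero hc₀ ha₀) hl horb
  refine ⟨GeneralLinearGroup.mkOfDetNeZero !![(a : F), 0; 0, 1] (by simp), k, ?_, ?_, ?_⟩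
  · intro b hb
    exact hk1 b hb
  · intro b hb
    exact hk2 b hb
  · intro g hg
    exact hk3 g hg

/-- The normal form, general case. -/
theorem normal_form [Fintype F] (p : ℕ) [Fact p.Prime] [CharP F p]
    (H : Subgroup (ProjectiveSpecialLinearGroup (Fin 2) F))
    {x y : OnePoint F} (hx : x ∈ OpF p H) (hy : y ∈ OpF p H) (hxy : x ≠ y) (htr : Trans p H) :
    ∃ (c : GL (Fin 2) F) (k : Subfield F),
      (∀ a ∈ k, ProjGenLinGroup.mk (c * toGL (up a) * c⁻¹) ∈ H.map ProjectiveSpecialLinearGroup.toPGL) ∧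
      (∀ a ∈ k, ProjGenLinGroup.mk (c * toGL (lo a) * c⁻¹) ∈ H.map ProjectiveSpecialLinearGroup.toPGL) ∧
      (∀ g : GL (Fin 2) F, ProjGenLinGroup.mk (c * g * c⁻¹) ∈ H.map ProjectiveSpecialLinearGroup.toPGL →
        ∃ s : F, s ≠ 0 ∧ ∀ i j, s * g i j ∈ k) := by
  obtain ⟨b, hbx, hby⟩ := exists_move x y hxy
  set H' := H.map (MulAut.conj b).toMonoidHom with hH'
  have hmem : ∀ h ∈ H, b * h * b⁻¹ ∈ H' := fun h hh => ⟨h, hh, rfl⟩
  have hOp : ∀ z, z ∈ OpF p H → pslPerm F b z ∈ OpF p H' := by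
    rintro z ⟨u, huH, hu1, hup, hux⟩
    refine ⟨b * u * b⁻¹, hmem u huH, fun h => hu1 (conj_eq_one_iff.mp h), ?_, ?_⟩
    · rw [conj_pow, hup, mul_one, mul_inv_cancel]
    · rw [map_mul, map_mul, map_inv, Equiv.Perm.mul_apply, Equiv.Perm.mul_apply, pinv_apply, hux]
  have hOp' : ∀ z, z ∈ OpF p H' → ∃ w ∈ OpF p H, pslPerm F b w = z := by
    rintro z ⟨_, ⟨u, huH, rfl⟩, hu1, hup, hux⟩
    refine ⟨(pslPerm F b)⁻¹ z, ⟨u, huH, ?_, ?_, ?_⟩, papply_inv _ _⟩
    · rintro rfl
      exact hu1 (map_one _)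
    · have h1 : (MulAut.conj b) (u ^ p) = 1 := by
        rw [map_pow]; exact hup
      exact (MulEquiv.map_eq_one_iff _).mp h1
    · have h1 : pslPerm F (b * u * b⁻¹) z = z := hux
      rw [map_mul, map_mul, map_inv, Equiv.Perm.mul_apply, Equiv.Perm.mul_apply] at h1
      apply (pslPerm F b).injective
      rw [h1, papply_inv]
  have htr' : Trans p H' := by
    intro x1 hx1 y1 hy1 z1 hz1 hyx hzx
    obtain ⟨x2, hx2, rfl⟩ := hOp' x1 hx1
    obtain ⟨y2, hy2, rfl⟩ := hOp' y1 hy1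
    obtain ⟨z2, hz2, rfl⟩ := hOp' z1 hz1
    obtain ⟨g, hgH, hgp, hgx, hgy⟩ := htr x2 hx2 y2 hy2 z2 hz2 (fun h => hyx (by rw [h]))
      (fun h => hzx (by rw [h]))
    refine ⟨b * g * b⁻¹, hmem g hgH, ?_, ?_, ?_⟩
    · rw [conj_pow, hgp, mul_one, mul_inv_cancel]
    · rw [map_mul, map_mul, map_inv, Equiv.Perm.mul_apply, Equiv.Perm.mul_apply, pinv_apply, hgx]
    · rw [map_mul, map_mul, map_inv, Equiv.Perm.mul_apply, Equiv.Perm.mul_apply, pinv_apply, hgy]
  have h1 := hOp x hx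
  have h2 := hOp y hy
  rw [hbx] at h1
  rw [hby] at h2
  obtain ⟨c, k, hk1, hk2, hk3⟩ := normalised' p H' h1 h2 htr'
  obtain ⟨B, rfl⟩ := exists_rep b
  have key : ∀ g : GL (Fin 2) F,
      ProjGenLinGroup.mk ((toGL B)⁻¹ * c * g * ((toGL B)⁻¹ * c)⁻¹) ∈ H.map ProjectiveSpecialLinearGroup.toPGL ↔
      ProjGenLinGroup.mk (c * g * c⁻¹) ∈ H'.map ProjectiveSpecialLinearGroup.toPGL := by
    intro g
    have e1 : ProjGenLinGroup.mk ((toGL B)⁻¹ * c * g * ((toGL B)⁻¹ * c)⁻¹) =
        (ProjectiveSpecialLinearGroup.toPGL (cl B))⁻¹ * ProjGenLinGroup.mk (c * g * c⁻¹) *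
          ProjectiveSpecialLinearGroup.toPGL (cl B) := by
      rw [ProjectiveSpecialLinearGroup.toPGL_mk]
      have e2 : (toGL B)⁻¹ * c * g * ((toGL B)⁻¹ * c)⁻¹ = (toGL B)⁻¹ * (c * g * c⁻¹) * toGL B := by group
      rw [e2]
      exact (map_mul ProjGenLinGroup.mk _ _).trans
        (by rw [map_mul ProjGenLinGroup.mk (toGL B)⁻¹ (c * g * c⁻¹), map_inv ProjGenLinGroup.mk (toGL B)])
    rw [e1]
    constructor
    · rintro ⟨h, hh, hh'⟩
      refine ⟨cl B * h * (cl B)⁻¹, hmem h hh, ?_⟩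
      rw [map_mul, map_mul, map_inv, hh']
      group
    · rintro ⟨_, ⟨h, hh, rfl⟩, hh'⟩
      refine ⟨h, hh, ?_⟩
      rw [← hh']
      change _ = (ProjectiveSpecialLinearGroup.toPGL (cl B))⁻¹ *
        (ProjectiveSpecialLinearGroup.toPGL (cl B * h * (cl B)⁻¹)) * _
      rw [map_mul, map_mul, map_inv]
      group
  refine ⟨(toGL B)⁻¹ * c, k, ?_, ?_, ?_⟩
  · intro a ha
    exact (key _).2 (hk1 a ha)
  · intro a ha
    exact (key _).2 (hk2 a ha)
  · intro g hg
    exact hk3 g ((key _).1 hg)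

end Cfsg.Agent.H917.Dk
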