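import Cfsg.Agent.H917.Dk1

/-!
# Overgroups of the one-qubit Clifford group: all determinants squares (helper917)
-/

set_option autoImplicit false
set_option linter.unusedSectionVars false
set_option linter.unusedVariables false

namespace Cfsg.Agent.H917.Dk

open Matrix MulAction OnePoint Matrix.SpecialLinearGroup
open Cfsg.Agent.ClassicalGeometry.PoleBridge
open Cfsg.Agent.ClassicalGeometry.DicksonWild
open Cfsg.Agent.ClassicalGeometry.PSL2Basic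
open Cfsg.Agent.Lib.Mobius
open Cfsg.Agent.ClassicalGeometry.SplitTorus
open Cfsg.Agent.ClassicalGeometry.DicksonSubfield

variable {F : Type*} [Field F]

/-- The matrix `X`. -/
def mX (F : Type*) [Field F] : Matrix (Fin 2) (Fin 2) F := !![0, 1; 1, 0]
/-- The matrix `Z`. -/
def mZ (F : Type*) [Field F] : Matrix (Fin 2) (Fin 2) F := !![1, 0; 0, -1]

/-- `X` as an element of `GL₂`. -/
def gX (F : Type*) [Field F] : GL (Fin 2) F :=
  ⟨mX F, mX F, by simp [mX, one_fin_two], by simp [mX, one_fin_two]⟩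
/-- `Z` as an element of `GL₂`. -/
def gZ (F : Type*) [Field F] : GL (Fin 2) F :=
  ⟨mZ F, mZ F, by simp [mZ, one_fin_two], by simp [mZ, one_fin_two]⟩

theorem four_ne {F : Type*} [Field F] (h2 : (2 : F) ≠ 0) : (4 : F) ≠ 0 := by
  have : (4 : F) = 2 * 2 := by norm_num
  rw [this]; exact mul_ne_zero h2 h2

/-- `P₊ - i P₋` for `Z`. -/
def gS (i : F) (hi : i * i = -1) : GL (Fin 2) F :=
  ⟨!![1, 0; 0, -i], !![1, 0; 0, i], by simp [one_fin_two, hi], by simp [one_fin_two, hi]⟩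

/-- `P₊ - i P₋` for `X`. -/
def gV (i : F) (hi : i * i = -1) (h2 : (2 : F) ≠ 0) : GL (Fin 2) F :=
  ⟨!![(1 - i) / 2, (1 + i) / 2; (1 + i) / 2, (1 - i) / 2],
   !![(1 + i) / 2, (1 - i) / 2; (1 - i) / 2, (1 + i) / 2],
   by
    ext a b
    fin_cases a <;> fin_cases b <;> simp [Matrix.mul_apply, Fin.sum_univ_two] <;> field_simp <;>
      first | linear_combination (2 : F) * hi | linear_combination (-2 : F) * hi,
   by
    ext a b
    fin_cases a <;> fin_cases b <;> simp [Matrix.mul_apply, Fin.sum_univ_two] <;> field_simp <;>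
      first | linear_combination (2 : F) * hi | linear_combination (-2 : F) * hi⟩

/-- Normalising the Paulis up to scalars. -/
def NormPauli (g : Matrix (Fin 2) (Fin 2) F) : Prop :=
  ∀ x, (x = mX F ∨ x = mZ F) →
    ∃ (l : F) (y : Matrix (Fin 2) (Fin 2) F), (y = mX F ∨ y = mZ F ∨ y = mX F * mZ F) ∧ g * x = l • (y * g)

/-- Overgroups of the one-qubit Clifford group. -/
structure Cl2 (i : F) (hi : i * i = -1) (h2 : (2 : F) ≠ 0) (H : Subgroup (GL (Fin 2) F)) : Prop where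
  X : gX F ∈ H
  Z : gZ F ∈ H
  S : gS i hi ∈ H
  V : gV i hi h2 ∈ H
  scalar : ∀ t : Fˣ, GeneralLinearGroup.scalar (Fin 2) t ∈ H

theorem mul_scalar_val (t : Fˣ) (g : GL (Fin 2) F) :
    ((g * GeneralLinearGroup.scalar (Fin 2) t : GL (Fin 2) F) : Matrix (Fin 2) (Fin 2) F) =
      (t : F) • (g : Matrix (Fin 2) (Fin 2) F) := by
  rw [Units.val_mul, GeneralLinearGroup.coe_scalar]
  ext a b
  simp [Matrix.mul_apply, Matrix.scalar_apply, Matrix.diagonal_apply, mul_comm]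

/-! ### Facts about `S₄`, `A₄`, `A₅` and dihedral groups -/

set_option maxRecDepth 10000 in
theorem perm4_sq : ∀ x : Equiv.Perm (Fin 4), x ^ 4 = 1 → x ^ 2 ≠ 1 →
    (x ^ 2 = Equiv.swap 0 1 * Equiv.swap 2 3 ∨ x ^ 2 = Equiv.swap 0 2 * Equiv.swap 1 3 ∨
      x ^ 2 = Equiv.swap 0 3 * Equiv.swap 1 2) := by decide

set_option maxRecDepth 10000 in
theorem perm4_conj' : ∀ g : Equiv.Perm (Fin 4),
    ((g * (Equiv.swap 0 1 * Equiv.swap 2 3) * g⁻¹ = Equiv.swap 0 1 * Equiv.swap 2 3 ∨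
      g * (Equiv.swap 0 1 * Equiv.swap 2 3) * g⁻¹ = Equiv.swap 0 2 * Equiv.swap 1 3 ∨
      g * (Equiv.swap 0 1 * Equiv.swap 2 3) * g⁻¹ = Equiv.swap 0 3 * Equiv.swap 1 2) ∧
     (g * (Equiv.swap 0 2 * Equiv.swap 1 3) * g⁻¹ = Equiv.swap 0 1 * Equiv.swap 2 3 ∨
      g * (Equiv.swap 0 2 * Equiv.swap 1 3) * g⁻¹ = Equiv.swap 0 2 * Equiv.swap 1 3 ∨
      g * (Equiv.swap 0 2 * Equiv.swap 1 3) * g⁻¹ = Equiv.swap 0 3 * Equiv.swap 1 2) ∧
     (g * (Equiv.swap 0 3 * Equiv.swap 1 2) * g⁻¹ = Equiv.swap 0 1 * Equiv.swap 2 3 ∨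
      g * (Equiv.swap 0 3 * Equiv.swap 1 2) * g⁻¹ = Equiv.swap 0 2 * Equiv.swap 1 3 ∨
      g * (Equiv.swap 0 3 * Equiv.swap 1 2) * g⁻¹ = Equiv.swap 0 3 * Equiv.swap 1 2)) := by decide

theorem perm4_conj : ∀ g : Equiv.Perm (Fin 4), ∀ d : Equiv.Perm (Fin 4),
    (d = Equiv.swap 0 1 * Equiv.swap 2 3 ∨ d = Equiv.swap 0 2 * Equiv.swap 1 3 ∨
      d = Equiv.swap 0 3 * Equiv.swap 1 2) →
    (g * d * g⁻¹ = Equiv.swap 0 1 * Equiv.swap 2 3 ∨ g * d * g⁻¹ = Equiv.swap 0 2 * Equiv.swap 1 3 ∨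
      g * d * g⁻¹ = Equiv.swap 0 3 * Equiv.swap 1 2) := by
  rintro g d (rfl | rfl | rfl)
  · exact (perm4_conj' g).1
  · exact (perm4_conj' g).2.1
  · exact (perm4_conj' g).2.2

theorem perm4_three : ∀ a b c : Equiv.Perm (Fin 4),
    (a = Equiv.swap 0 1 * Equiv.swap 2 3 ∨ a = Equiv.swap 0 2 * Equiv.swap 1 3 ∨
      a = Equiv.swap 0 3 * Equiv.swap 1 2) →
    (b = Equiv.swap 0 1 * Equiv.swap 2 3 ∨ b = Equiv.swap 0 2 * Equiv.swap 1 3 ∨
      b = Equiv.swap 0 3 * Equiv.swap 1 2) →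
    (c = Equiv.swap 0 1 * Equiv.swap 2 3 ∨ c = Equiv.swap 0 2 * Equiv.swap 1 3 ∨
      c = Equiv.swap 0 3 * Equiv.swap 1 2) → a ≠ b → (c = a ∨ c = b ∨ c = a * b) := by
  rintro a b c (rfl | rfl | rfl) (rfl | rfl | rfl) (rfl | rfl | rfl) <;> decide

theorem perm4_key {G : Type*} [Group G] (e : G ≃* Equiv.Perm (Fin 4)) (x y g : G)
    (hx4 : x ^ 4 = 1) (hx2 : x ^ 2 ≠ 1) (hy4 : y ^ 4 = 1) (hy2 : y ^ 2 ≠ 1) (hxy : x ^ 2 ≠ y ^ 2) :
    g * x ^ 2 * g⁻¹ = x ^ 2 ∨ g * x ^ 2 * g⁻¹ = y ^ 2 ∨ g * x ^ 2 * g⁻¹ = x ^ 2 * y ^ 2 := by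
  have h1 := perm4_sq (e x) (by rw [← map_pow, hx4, map_one])
    (fun h => hx2 (e.injective (by rw [map_pow, h, map_one])))
  have h2 := perm4_sq (e y) (by rw [← map_pow, hy4, map_one])
    (fun h => hy2 (e.injective (by rw [map_pow, h, map_one])))
  have h3 := perm4_conj (e g) _ h1
  rcases perm4_three _ _ _ h1 h2 h3 (fun h => hxy (e.injective (by rw [map_pow, map_pow, h]))) with h | h | h
  · left; apply e.injective; simpa using h
  · right; left; apply e.injective; simpa using h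
  · right; right; apply e.injective; simpa using h

theorem alt4_key : ∀ x : alternatingGroup (Fin 4), x ^ 4 = 1 → x ^ 2 = 1 := by decide

set_option maxRecDepth 100000 in
theorem perm5_key : ∀ x : Equiv.Perm (Fin 5), x ^ 4 = 1 → Equiv.Perm.sign x = 1 → x ^ 2 = 1 := by
  decide

theorem alt5_key (x : alternatingGroup (Fin 5)) (h : x ^ 4 = 1) : x ^ 2 = 1 := by
  apply Subtype.ext
  exact perm5_key x (by rw [← Subgroup.coe_pow, h]; rfl) x.2

theorem dihedral_key {k : ℕ} (x y : DihedralGroup k) : x ^ 2 * y ^ 2 = y ^ 2 * x ^ 2 := by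
  rcases x with i | i <;> rcases y with j | j <;>
    simp [pow_two, DihedralGroup.r_mul_r, DihedralGroup.sr_mul_sr, add_comm]

end Cfsg.Agent.H917.Dk
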