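import Cfsg.Agent.H917.Dk2

/-!
# Overgroups of the one-qubit Clifford group: all determinants squares (helper917), continued
-/

set_option autoImplicit false
set_option linter.unusedSectionVars false
set_option linter.unusedVariables false

namespace Cfsg.Agent.H917.Dk

open Matrix MulAction OnePoint Matrix.SpecialLinearGroup
open Cfsg.Agent.ClassicalGeometry.PoleBridge
open Cfsg.Agent.ClassicalGeometry.DicksonWild
open Cfsg.Agent.ClassicalGeometry.PSL2Basic
open Cfsg.Agent.Lib.Mobius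
open Cfsg.Agent.ClassicalGeometry.SplitTorus
open Cfsg.Agent.ClassicalGeometry.DicksonSubfield

variable {F : Type*} [Field F]

theorem gS_sq (i : F) (hi : i * i = -1) : gS i hi * gS i hi = gZ F := by
  apply Units.ext
  simp [gS, gZ, mZ, hi]

theorem gV_sq (i : F) (hi : i * i = -1) (h2 : (2 : F) ≠ 0) : gV i hi h2 * gV i hi h2 = gX F := by
  apply Units.ext
  ext a b
  fin_cases a <;> fin_cases b <;> simp [gV, gX, mX, Matrix.mul_apply, Fin.sum_univ_two] <;> field_simp <;>
      first | linear_combination (2 : F) * hi | linear_combination (-2 : F) * hi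

theorem mk_eq_val {g h : GL (Fin 2) F}
    (hgh : ProjGenLinGroup.mk g = ProjGenLinGroup.mk h) :
    ∃ u : F, u ≠ 0 ∧ u • (g : Matrix (Fin 2) (Fin 2) F) = (h : Matrix (Fin 2) (Fin 2) F) := by
  rw [ProjGenLinGroup.mk_eq_mk_iff] at hgh
  obtain ⟨u, hu⟩ := hgh
  refine ⟨u, u.ne_zero, ?_⟩
  rw [← mul_scalar_val, hu]

variable {H : Subgroup (GL (Fin 2) F)}

theorem mk_mem_map_iff (hs : ∀ t : Fˣ, GeneralLinearGroup.scalar (Fin 2) t ∈ H) (g : GL (Fin 2) F) :
    ProjGenLinGroup.mk g ∈ H.map (ProjGenLinGroup.mk (n := Fin 2) (R := F)) ↔ g ∈ H := by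
  constructor
  · rintro ⟨h, hh, hhg⟩
    rw [ProjGenLinGroup.mk_eq_mk_iff] at hhg
    obtain ⟨t, ht⟩ := hhg
    rw [← ht]
    exact H.mul_mem hh (hs t)
  · intro hg
    exact ⟨g, hg, rfl⟩

theorem exists_hat (hs : ∀ t : Fˣ, GeneralLinearGroup.scalar (Fin 2) t ∈ H)
    (hsq : ∀ g ∈ H, IsSquare ((g : Matrix (Fin 2) (Fin 2) F).det)) {g : GL (Fin 2) F} (hg : g ∈ H) :
    ∃ x : (H.map (ProjGenLinGroup.mk (n := Fin 2) (R := F))).comap ProjectiveSpecialLinearGroup.toPGL,
      ProjectiveSpecialLinearGroup.toPGL (x : ProjectiveSpecialLinearGroup (Fin 2) F) = ProjGenLinGroup.mk g := by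
  obtain ⟨t, A, hA⟩ := exists_sl_of_isSquare g (hsq g hg)
  have h1 : ProjectiveSpecialLinearGroup.toPGL (cl A) = ProjGenLinGroup.mk g := by
    rw [ProjectiveSpecialLinearGroup.toPGL_mk, ProjGenLinGroup.mk_eq_mk_iff]
    refine ⟨t, ?_⟩
    rw [hA]
    apply Units.ext
    rw [mul_scalar_val, Units.val_mul, GeneralLinearGroup.coe_scalar]
    ext a b
    simp [Matrix.mul_apply, Matrix.scalar_apply, Matrix.diagonal_apply]
  refine ⟨⟨cl A, ?_⟩, h1⟩
  rw [Subgroup.mem_comap, h1]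
  exact ⟨g, hg, rfl⟩

/-! ### The transitive case -/

/-- `A` is proportional to a matrix over the subfield `k`: if moreover `A = 1 + i Ξ` with `Ξ` of trace
zero then `Ξ` is over `k`. -/
theorem entries_mem (h2 : (2 : F) ≠ 0) (i : F) (hi : i * i = -1) (k : Subfield F) (hik : i ∈ k)
    (Ξ : Matrix (Fin 2) (Fin 2) F) (htr : Ξ 0 0 + Ξ 1 1 = 0) (r : F) (hr : r ≠ 0)
    (h : ∀ a b, r * ((1 : Matrix (Fin 2) (Fin 2) F) + i • Ξ) a b ∈ k) : ∀ a b, Ξ a b ∈ k := by
  have h2k : (2 : F) ∈ k := by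
    have := k.add_mem k.one_mem k.one_mem
    rwa [one_add_one_eq_two] at this
  have hi0 : i ≠ 0 := by
    rintro rfl
    rw [mul_zero] at hi
    exact one_ne_zero (neg_eq_zero.mp hi.symm)
  have hrk : r ∈ k := by
    have h3 := k.add_mem (h 0 0) (h 1 1)
    have h4 : r * ((1 : Matrix (Fin 2) (Fin 2) F) + i • Ξ) 0 0 +
        r * ((1 : Matrix (Fin 2) (Fin 2) F) + i • Ξ) 1 1 = 2 * r := by
      simp only [Matrix.add_apply, Matrix.one_apply_eq, Matrix.smul_apply, smul_eq_mul]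
      linear_combination r * i * htr
    rw [h4] at h3
    have h5 := k.mul_mem (k.inv_mem h2k) h3
    rwa [← mul_assoc, inv_mul_cancel₀ h2, one_mul] at h5
  intro a b
  have h3 := k.mul_mem (k.inv_mem hrk) (h a b)
  rw [← mul_assoc, inv_mul_cancel₀ hr, one_mul] at h3
  have h4 : (1 : Matrix (Fin 2) (Fin 2) F) a b ∈ k := by
    by_cases hab : a = b
    · subst hab; rw [Matrix.one_apply_eq]; exact k.one_mem
    · rw [Matrix.one_apply_ne hab]; exact k.zero_mem
  have h5 := k.sub_mem h3 h4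
  rw [Matrix.add_apply, add_sub_cancel_left, Matrix.smul_apply, smul_eq_mul] at h5
  have h6 := k.mul_mem (k.inv_mem hik) h5
  rwa [← mul_assoc, inv_mul_cancel₀ hi0, one_mul] at h6

/-- A matrix commuting with `X` and `Z` is scalar. -/
theorem scalar_of_commute (h2 : (2 : F) ≠ 0) (M : Matrix (Fin 2) (Fin 2) F) (hX : M * mX F = mX F * M)
    (hZ : M * mZ F = mZ F * M) : M = (M 0 0) • (1 : Matrix (Fin 2) (Fin 2) F) := by
  have e1 := congrFun (congrFun hZ 0) 1
  have e2 := congrFun (congrFun hZ 1) 0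
  have e3 := congrFun (congrFun hX 0) 1
  simp [mZ, mX, Matrix.mul_apply, Fin.sum_univ_two] at e1 e2 e3
  have e4 : M 0 1 = 0 := by
    have : 2 * M 0 1 = 0 := by linear_combination - e1
    exact (mul_eq_zero.mp this).resolve_left h2
  have e5 : M 1 0 = 0 := by
    have : 2 * M 1 0 = 0 := by linear_combination e2
    exact (mul_eq_zero.mp this).resolve_left h2
  ext a b
  fin_cases a <;> fin_cases b <;> simp [e4, e5, e3]

end Cfsg.Agent.H917.Dk
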