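import Cfsg.Agent.H917.Dk3

/-!
# Overgroups of the one-qubit Clifford group: the transitive case (helper917)
-/

set_option autoImplicit false
set_option linter.unusedSectionVars false
set_option linter.unusedVariables false

namespace Cfsg.Agent.H917.Dk

open Matrix MulAction OnePoint Matrix.SpecialLinearGroup
open Cfsg.Agent.ClassicalGeometry.PoleBridge
open Cfsg.Agent.ClassicalGeometry.DicksonWild
open Cfsg.Agent.ClassicalGeometry.PSL2Basic
open Cfsg.Agent.Lib.Mobius
open Cfsg.Agent.ClassicalGeometry.SplitTorus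
open Cfsg.Agent.ClassicalGeometry.DicksonSubfield

variable {F : Type*} [Field F]

theorem one_add_i_ne (i : F) (hi : i * i = -1) (h2 : (2 : F) ≠ 0) : 1 + i ≠ 0 := by
  intro h
  apply h2
  have : i = -1 := by linear_combination h
  rw [this] at hi
  linear_combination hi

theorem gS_val (i : F) (hi : i * i = -1) : (1 + i) • (gS i hi : Matrix (Fin 2) (Fin 2) F) = 1 + i • mZ F := by
  ext a b
  fin_cases a <;> fin_cases b <;> simp [gS, mZ]
  linear_combination - hi

theorem gV_val (i : F) (hi : i * i = -1) (h2 : (2 : F) ≠ 0) :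
    (1 + i) • (gV i hi h2 : Matrix (Fin 2) (Fin 2) F) = 1 + i • mX F := by
  ext a b
  fin_cases a <;> fin_cases b <;> simp [gV, mX] <;> field_simp <;>
    first | linear_combination - hi | linear_combination hi

variable {H : Subgroup (GL (Fin 2) F)}

theorem mX_sq : mX F * mX F = 1 := by simp [mX, one_fin_two]
theorem mZ_sq : mZ F * mZ F = 1 := by simp [mZ, one_fin_two]
theorem mX_mZ : mX F * mZ F = - (mZ F * mX F) := by simp [mX, mZ]

/-- The matrix over `k` conjugating the Paulis to the standard position. -/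
theorem exists_D {k : Subfield F} (h2 : (2 : F) ≠ 0) (A B : Matrix (Fin 2) (Fin 2) F)
    (hA : ∀ a b, A a b ∈ k) (hB : ∀ a b, B a b ∈ k) (hAA : A * A = 1) (hBB : B * B = 1) (hA1 : A ≠ -1)
    (hAB : B * A = - (A * B)) :
    ∃ D : Matrix (Fin 2) (Fin 2) F, D ≠ 0 ∧ (∀ a b, D a b ∈ k) ∧ A * D = D * mZ F ∧ B * D = D * mX F := by
  obtain ⟨w, hw, hwk⟩ : ∃ w : Fin 2 → F, (1 + A) *ᵥ w ≠ 0 ∧ ∀ a, w a ∈ k := by
    by_contra hcon
    push Not at hcon
    apply hA1
    have h0 : (1 + A) = 0 := by
      ext a b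
      by_contra hne
      obtain ⟨a', ha'⟩ := hcon (Pi.single b 1) (fun h => hne (by
        have := congrFun h a
        simpa using this))
      apply ha'
      by_cases hab : a' = b
      · subst hab; rw [Pi.single_eq_same]; exact k.one_mem
      · rw [Pi.single_eq_of_ne hab]; exact k.zero_mem
    exact (eq_neg_of_add_eq_zero_right h0)
  set v := (1 + A) *ᵥ w with hv
  have hAv : A *ᵥ v = v := by
    rw [hv, Matrix.mulVec_mulVec, mul_add, hAA, mul_one, add_comm]
  have hvk : ∀ a, v a ∈ k := by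
    intro a
    rw [hv]
    simp only [Matrix.mulVec, dotProduct, Matrix.add_apply]
    refine k.sum_mem fun b _ => k.mul_mem (k.add_mem ?_ (hA a b)) (hwk b)
    by_cases hab : a = b
    · subst hab; rw [Matrix.one_apply_eq]; exact k.one_mem
    · rw [Matrix.one_apply_ne hab]; exact k.zero_mem
  set u := B *ᵥ v with hu
  have hAu : A *ᵥ u = - u := by
    have h3 : A * B = - (B * A) := by rw [hAB, neg_neg]
    rw [hu, Matrix.mulVec_mulVec, h3, Matrix.neg_mulVec, ← Matrix.mulVec_mulVec, hAv]
  have hBu : B *ᵥ u = v := by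
    rw [hu, Matrix.mulVec_mulVec, hBB, Matrix.one_mulVec]
  have huk : ∀ a, u a ∈ k := by
    intro a
    rw [hu]
    simp only [Matrix.mulVec, dotProduct]
    exact k.sum_mem fun b _ => k.mul_mem (hB a b) (hvk b)
  refine ⟨Matrix.of fun a b => if b = 0 then v a else u a, ?_, ?_, ?_, ?_⟩
  · intro h
    apply hw
    funext a
    have := congrFun (congrFun h a) 0
    simpa using this
  · intro a b
    simp only [Matrix.of_apply]
    split_ifs
    · exact hvk a
    · exact huk a
  · ext a b
    have e1 := congrFun hAv a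
    have e2 := congrFun hAu a
    simp only [Matrix.mulVec, dotProduct, Fin.sum_univ_two] at e1 e2
    fin_cases b
    · simpa [mZ, Matrix.mul_apply, Fin.sum_univ_two] using e1
    · simpa [mZ, Matrix.mul_apply, Fin.sum_univ_two] using e2
  · ext a b
    have e1 := congrFun hu a
    have e2 := congrFun hBu a
    simp only [Matrix.mulVec, dotProduct, Fin.sum_univ_two] at e1 e2
    fin_cases b
    · simpa [mX, Matrix.mul_apply, Fin.sum_univ_two] using e1.symm
    · simpa [mX, Matrix.mul_apply, Fin.sum_univ_two] using e2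

/-- In the transitive case a standard unipotent element is in the group. -/
theorem up_mem_of_normal {i : F} {hi : i * i = -1} {h2 : (2 : F) ≠ 0} {n : ℕ} (hn : (n : F) = i)
    (hH : Cl2 i hi h2 H) (c : GL (Fin 2) F) (k : Subfield F)
    (h1 : ∀ a ∈ k, c * toGL (up a) * c⁻¹ ∈ H) (hl : ∀ a ∈ k, c * toGL (lo a) * c⁻¹ ∈ H)
    (h3 : ∀ g : GL (Fin 2) F, c * g * c⁻¹ ∈ H → ∃ s : F, s ≠ 0 ∧ ∀ a b, s * g a b ∈ k) :
    toGL (up (1 : F)) ∈ H := by
  have hik : i ∈ k := hn ▸ natCast_mem k n
  have hpi := one_add_i_ne i hi h2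
  set ci : Matrix (Fin 2) (Fin 2) F := ((c⁻¹ : GL (Fin 2) F) : Matrix (Fin 2) (Fin 2) F) with hci
  set cm : Matrix (Fin 2) (Fin 2) F := (c : Matrix (Fin 2) (Fin 2) F) with hcm
  have hcc : ci * cm = 1 := by rw [hci, hcm, ← Units.val_mul, inv_mul_cancel, Units.val_one]
  have hcc' : cm * ci = 1 := by rw [hci, hcm, ← Units.val_mul, mul_inv_cancel, Units.val_one]
  have key : ∀ (g : GL (Fin 2) F) (m : Matrix (Fin 2) (Fin 2) F), g ∈ H →
      (1 + i) • (g : Matrix (Fin 2) (Fin 2) F) = 1 + i • m → m 0 0 + m 1 1 = 0 →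
      ∀ a b, (ci * m * cm) a b ∈ k := by
    intro g m hg hgm hm
    obtain ⟨s, hs, hsk⟩ := h3 (c⁻¹ * g * c) (by
      have : c * (c⁻¹ * g * c) * c⁻¹ = g := by group
      rw [this]; exact hg)
    have hval : ((c⁻¹ * g * c : GL (Fin 2) F) : Matrix (Fin 2) (Fin 2) F) =
        (1 + i)⁻¹ • (1 + i • (ci * m * cm)) := by
      rw [Units.val_mul, Units.val_mul, ← hci, ← hcm]
      have : (g : Matrix (Fin 2) (Fin 2) F) = (1 + i)⁻¹ • (1 + i • m) := by
        rw [← hgm, smul_smul, inv_mul_cancel₀ hpi, one_smul]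
      rw [this, Matrix.mul_smul, Matrix.smul_mul]
      congr 1
      rw [mul_add, add_mul, mul_one, hcc, Matrix.mul_smul, Matrix.smul_mul]
    refine entries_mem h2 i hi k hik _ ?_ (s * (1 + i)⁻¹) (mul_ne_zero hs (inv_ne_zero hpi)) ?_
    · have ht : Matrix.trace (ci * m * cm) = Matrix.trace m := by
        rw [Matrix.trace_mul_comm, ← mul_assoc, hcc', one_mul]
      rw [Matrix.trace_fin_two, Matrix.trace_fin_two] at ht
      rw [ht, hm]
    · intro a b
      have := hsk a b
      rw [hval, Matrix.smul_apply, smul_eq_mul, ← mul_assoc] at this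
      exact this
  have hΞZ := key (gS i hi) (mZ F) hH.S (gS_val i hi) (by simp [mZ])
  have hΞX := key (gV i hi h2) (mX F) hH.V (gV_val i hi h2) (by simp [mX])
  have hconj : ∀ m m' : Matrix (Fin 2) (Fin 2) F, (ci * m * cm) * (ci * m' * cm) = ci * (m * m') * cm := by
    intro m m'
    calc (ci * m * cm) * (ci * m' * cm) = ci * m * (cm * ci) * m' * cm := by noncomm_ring
      _ = _ := by rw [hcc']; noncomm_ring
  obtain ⟨D, hD0, hDk, hDZ, hDX⟩ := exists_D (k := k) h2 (ci * mZ F * cm) (ci * mX F * cm) hΞZ hΞX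
    (by rw [hconj, mZ_sq, mul_one, hcc]) (by rw [hconj, mX_sq, mul_one, hcc])
    (by
      intro h
      have h5 : mZ F = -1 := by
        calc mZ F = (cm * ci) * mZ F * (cm * ci) := by rw [hcc', one_mul, mul_one]
          _ = cm * (ci * mZ F * cm) * ci := by noncomm_ring
          _ = -1 := by rw [h, mul_neg, mul_one, neg_mul, hcc']
      have h6 := congrFun (congrFun h5 0) 0
      simp [mZ] at h6
      apply h2
      linear_combination h6)
    (by rw [hconj, hconj, mX_mZ, mul_neg, neg_mul])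
  -- `c D` is scalar
  have hcD : cm * D = (cm * D) 0 0 • (1 : Matrix (Fin 2) (Fin 2) F) := by
    apply scalar_of_commute h2
    · have : cm * (ci * mX F * cm * D) = mX F * (cm * D) := by
        calc cm * (ci * mX F * cm * D) = (cm * ci) * mX F * (cm * D) := by noncomm_ring
          _ = _ := by rw [hcc', one_mul]
      rw [← this, hDX, mul_assoc]
    · have : cm * (ci * mZ F * cm * D) = mZ F * (cm * D) := by
        calc cm * (ci * mZ F * cm * D) = (cm * ci) * mZ F * (cm * D) := by noncomm_ring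
          _ = _ := by rw [hcc', one_mul]
      rw [← this, hDZ, mul_assoc]
  set μ := (cm * D) 0 0 with hμ
  have hDμ : D = μ • ci := by
    calc D = (ci * cm) * D := by rw [hcc, one_mul]
      _ = ci * (cm * D) := by rw [mul_assoc]
      _ = μ • ci := by rw [hcD, Matrix.mul_smul, mul_one]
  have hμ0 : μ ≠ 0 := by
    intro h
    rw [h, zero_smul] at hDμ
    exact hD0 hDμ
  set E : Matrix (Fin 2) (Fin 2) F := μ⁻¹ • cm with hE
  have hDE : D * E = 1 := by
    rw [hE, hDμ, Matrix.smul_mul, Matrix.mul_smul, hcc, smul_smul, mul_inv_cancel₀ hμ0, one_smul]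
  have hEk : ∀ a b, E a b ∈ k := by
    have hinv : D⁻¹ = E := Matrix.inv_eq_right_inv hDE
    have hdet : D.det ∈ k := by
      rw [Matrix.det_fin_two]
      exact k.sub_mem (k.mul_mem (hDk _ _) (hDk _ _)) (k.mul_mem (hDk _ _) (hDk _ _))
    intro a b
    rw [← hinv, Matrix.inv_def, Ring.inverse_eq_inv', Matrix.smul_apply, smul_eq_mul]
    refine k.mul_mem (k.inv_mem hdet) ?_
    rw [Matrix.adjugate_fin_two]
    fin_cases a <;> fin_cases b <;> simp [hDk, k.neg_mem]
  set U : Matrix (Fin 2) (Fin 2) F := ((up (1 : F) : SpecialLinearGroup (Fin 2) F) : Matrix (Fin 2) (Fin 2) F) with hU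
  set B : Matrix (Fin 2) (Fin 2) F := ci * U * cm with hB
  have hBDE : B = D * U * E := by
    rw [hB, hE, hDμ, Matrix.smul_mul, Matrix.smul_mul, Matrix.mul_smul, smul_smul, mul_inv_cancel₀ hμ0, one_smul]
  have hUk : ∀ a b, U a b ∈ k := by
    intro a b
    rw [hU]
    fin_cases a <;> fin_cases b
    · exact k.one_mem
    · exact k.one_mem
    · exact k.zero_mem
    · exact k.one_mem
  have hBk : ∀ a b, B a b ∈ k := by
    intro a b
    rw [hBDE]
    simp only [Matrix.mul_apply]
    exact k.sum_mem fun x _ => k.mul_mem (k.sum_mem fun y _ => k.mul_mem (hDk _ _) (hUk _ _)) (hEk _ _)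
  have hBdet : B.det = 1 := by
    rw [hB, Matrix.det_mul, Matrix.det_mul, mul_right_comm, ← Matrix.det_mul, hcc, Matrix.det_one, one_mul, hU]
    exact (up (1 : F)).2
  let Bk : SpecialLinearGroup (Fin 2) k := ⟨Matrix.of fun a b => (⟨B a b, hBk a b⟩ : k), by
    apply k.subtype.injective
    rw [RingHom.map_det, map_one, ← hBdet]
    rfl⟩
  let φ : SpecialLinearGroup (Fin 2) k →* GL (Fin 2) F :=
    ((MulAut.conj c).toMonoidHom.comp toGL).comp (SpecialLinearGroup.map k.subtype)
  have hφ : ∀ A, φ A = c * toGL (SpecialLinearGroup.map k.subtype A) * c⁻¹ := fun _ => rfl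
  have hmem : Bk ∈ H.comap φ := by
    apply mem_of_up_lo
    · intro b
      rw [Subgroup.mem_comap, hφ]
      have : SpecialLinearGroup.map k.subtype (up b) = up (b : F) := by
        apply ext2 <;> rfl
      rw [this]
      exact h1 _ b.2
    · intro b
      rw [Subgroup.mem_comap, hφ]
      have : SpecialLinearGroup.map k.subtype (lo b) = lo (b : F) := by
        apply ext2 <;> rfl
      rw [this]
      exact hl _ b.2
  rw [Subgroup.mem_comap, hφ] at hmem
  have hfin : c * toGL (SpecialLinearGroup.map k.subtype Bk) * c⁻¹ = toGL (up (1 : F)) := by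
    have e1 : toGL (SpecialLinearGroup.map k.subtype Bk) = c⁻¹ * toGL (up (1 : F)) * c := by
      apply Units.ext
      rw [Units.val_mul, Units.val_mul]
      ext a b
      rfl
    rw [e1]
    group
  rwa [hfin] at hmem

end Cfsg.Agent.H917.Dk
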