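import Cfsg.Agent.H917.Dk4

/-!
# Overgroups of the one-qubit Clifford group: conclusion (helper917)
-/

set_option autoImplicit false
set_option linter.unusedSectionVars false
set_option linter.unusedVariables false

namespace Cfsg.Agent.H917.Dk

open Matrix MulAction OnePoint Matrix.SpecialLinearGroup
open Cfsg.Agent.ClassicalGeometry.PoleBridge
open Cfsg.Agent.ClassicalGeometry.DicksonWild
open Cfsg.Agent.ClassicalGeometry.PSL2Basic
open Cfsg.Agent.Lib.Mobius
open Cfsg.Agent.ClassicalGeometry.SplitTorus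
open Cfsg.Agent.ClassicalGeometry.DicksonSubfield

variable {F : Type*} [Field F]

theorem i_ne_neg (i : F) (hi : i * i = -1) (h2 : (2 : F) ≠ 0) : i ≠ 0 ∧ 2 * i ≠ 0 := by
  have hi0 : i ≠ 0 := by
    rintro rfl
    rw [mul_zero] at hi
    exact one_ne_zero (neg_eq_zero.mp hi.symm)
  exact ⟨hi0, mul_ne_zero h2 hi0⟩

theorem SVVS (i : F) (hi : i * i = -1) (h2 : (2 : F) ≠ 0) (u : F)
    (h : u • ((gS i hi * gV i hi h2 : GL (Fin 2) F) : Matrix (Fin 2) (Fin 2) F) =
      ((gV i hi h2 * gS i hi : GL (Fin 2) F) : Matrix (Fin 2) (Fin 2) F)) : False := by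
  have e0 := congrFun (congrFun h 0) 0
  have e1 := congrFun (congrFun h 0) 1
  have hp := one_add_i_ne i hi h2
  have hm : 1 - i ≠ 0 := by
    intro h0
    apply h2
    have : i = 1 := by linear_combination - h0
    rw [this] at hi
    linear_combination hi
  simp [gS, gV, Matrix.mul_apply, Fin.sum_univ_two] at e0 e1
  field_simp at e0 e1
  rw [e0] at e1
  have h3 : i = -1 := by linear_combination e1
  rw [h3] at hi
  apply h2
  linear_combination hi

theorem SV_sq_val (i : F) (hi : i * i = -1) (h2 : (2 : F) ≠ 0) :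
    (((gS i hi * gV i hi h2) ^ 2 : GL (Fin 2) F) : Matrix (Fin 2) (Fin 2) F) 0 0 = (1 - i) / 2 ∧
    (((gS i hi * gV i hi h2) ^ 2 : GL (Fin 2) F) : Matrix (Fin 2) (Fin 2) F) 0 1 = (1 - i) / 2 := by
  have h4 := four_ne h2
  constructor
  · simp [gS, gV, pow_two, Matrix.mul_apply, Fin.sum_univ_two]
    field_simp
    linear_combination (-1 - i) * hi
  · simp [gS, gV, pow_two, Matrix.mul_apply, Fin.sum_univ_two]
    field_simp
    linear_combination (-1 + i) * hi

theorem SVZ (i : F) (hi : i * i = -1) (h2 : (2 : F) ≠ 0) (u : F)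
    (h : u • (((gS i hi * gV i hi h2) ^ 2 * gZ F : GL (Fin 2) F) : Matrix (Fin 2) (Fin 2) F) =
      ((gZ F * (gS i hi * gV i hi h2) ^ 2 : GL (Fin 2) F) : Matrix (Fin 2) (Fin 2) F)) : False := by
  obtain ⟨q0, q1⟩ := SV_sq_val i hi h2
  rw [Units.val_mul, Units.val_mul] at h
  set Q := (((gS i hi * gV i hi h2) ^ 2 : GL (Fin 2) F) : Matrix (Fin 2) (Fin 2) F)
  have e0 := congrFun (congrFun h 0) 0
  have e1 := congrFun (congrFun h 0) 1
  have hm : 1 - i ≠ 0 := by
    intro h0
    apply h2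
    have : i = 1 := by linear_combination - h0
    rw [this] at hi
    linear_combination hi
  simp [gZ, mZ, Matrix.mul_apply, Fin.sum_univ_two, q0, q1] at e0 e1
  have hmm : (1 - i) / 2 ≠ 0 := div_ne_zero hm h2
  have h5 : (u - 1) * ((1 - i) / 2) = 0 := by linear_combination e0
  have h6 : (u + 1) * ((1 - i) / 2) = 0 := by linear_combination - e1
  have h7 := (mul_eq_zero.mp h5).resolve_right hmm
  have h8 := (mul_eq_zero.mp h6).resolve_right hmm
  apply h2
  linear_combination h8 - h7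

theorem mk_Z_ne_one (h2 : (2 : F) ≠ 0) : ProjGenLinGroup.mk (gZ F) ≠ 1 := by
  intro h
  obtain ⟨u, hu0, hu⟩ := mk_eq_val (h.trans (map_one ProjGenLinGroup.mk).symm)
  have e0 := congrFun (congrFun hu 0) 0
  have e1 := congrFun (congrFun hu 1) 1
  simp [gZ, mZ] at e0 e1
  apply h2
  linear_combination (-1 : F) * e1 - e0

theorem mk_X_ne_one (h2 : (2 : F) ≠ 0) : ProjGenLinGroup.mk (gX F) ≠ 1 := by
  intro h
  obtain ⟨u, hu0, hu⟩ := mk_eq_val (h.trans (map_one ProjGenLinGroup.mk).symm)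
  have e0 := congrFun (congrFun hu 0) 0
  simp [gX, mX] at e0

theorem mk_X_ne_Z : ProjGenLinGroup.mk (gX F) ≠ ProjGenLinGroup.mk (gZ F) := by
  intro h
  obtain ⟨u, hu0, hu⟩ := mk_eq_val h
  have e0 := congrFun (congrFun hu 0) 0
  simp [gX, gZ, mZ, mX] at e0

theorem gX_sq : gX F * gX F = 1 := by apply Units.ext; exact mX_sq
theorem gZ_sq : gZ F * gZ F = 1 := by apply Units.ext; exact mZ_sq

/-- Overgroups of the one-qubit Clifford group, all determinants squares. -/
theorem cl2_cases_sq [Fintype F] (p : ℕ) [Fact p.Prime] [CharP F p] {i : F} {hi : i * i = -1}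
    {h2 : (2 : F) ≠ 0} {n : ℕ} (hn : (n : F) = i) {H : Subgroup (GL (Fin 2) F)} (hH : Cl2 i hi h2 H)
    (hsq : ∀ g ∈ H, IsSquare ((g : Matrix (Fin 2) (Fin 2) F).det)) :
    (∀ g ∈ H, NormPauli (g : Matrix (Fin 2) (Fin 2) F)) ∨ toGL (up (1 : F)) ∈ H := by
  classical
  set H₂ : Subgroup (ProjectiveSpecialLinearGroup (Fin 2) F) :=
    (H.map (ProjGenLinGroup.mk (n := Fin 2) (R := F))).comap ProjectiveSpecialLinearGroup.toPGL with hH₂
  have hinj := ProjectiveSpecialLinearGroup.toPGL_injective (n := Fin 2) (R := F)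
  have hmem : ∀ g : GL (Fin 2) F, ProjGenLinGroup.mk g ∈ H₂.map ProjectiveSpecialLinearGroup.toPGL ↔ g ∈ H := by
    intro g
    rw [← mk_mem_map_iff hH.scalar g]
    constructor
    · rintro ⟨x, hx, hxg⟩
      rw [← hxg]
      exact hx
    · rintro ⟨h, hh, hhg⟩
      obtain ⟨x, hx⟩ := exists_hat hH.scalar hsq hh
      exact ⟨x, x.2, by rw [hx]; exact hhg⟩
  -- lifts
  have hat : ∀ g ∈ H, ∃ x : H₂, ProjectiveSpecialLinearGroup.toPGL (x : ProjectiveSpecialLinearGroup (Fin 2) F) =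
      ProjGenLinGroup.mk g := fun g hg => exists_hat hH.scalar hsq hg
  have heq : ∀ {x y : H₂}, ProjectiveSpecialLinearGroup.toPGL (x : ProjectiveSpecialLinearGroup (Fin 2) F) =
      ProjectiveSpecialLinearGroup.toPGL (y : ProjectiveSpecialLinearGroup (Fin 2) F) ↔ x = y :=
    fun {x y} => ⟨fun h => Subtype.ext (hinj h), fun h => by rw [h]⟩
  obtain ⟨xS, hxS⟩ := hat _ hH.S
  obtain ⟨xV, hxV⟩ := hat _ hH.V
  obtain ⟨xX, hxX⟩ := hat _ hH.X
  obtain ⟨xZ, hxZ⟩ := hat _ hH.Z
  have hSS : xS ^ 2 = xZ := by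
    apply heq.1
    rw [pow_two, Subgroup.coe_mul, map_mul, hxS, hxZ, ← map_mul, gS_sq]
  have hVV : xV ^ 2 = xX := by
    apply heq.1
    rw [pow_two, Subgroup.coe_mul, map_mul, hxV, hxX, ← map_mul, gV_sq]
  have hZZ : xZ ^ 2 = 1 := by
    apply heq.1
    rw [pow_two, Subgroup.coe_mul, map_mul, hxZ, ← map_mul, gZ_sq, map_one, Subgroup.coe_one, map_one]
  have hXX : xX ^ 2 = 1 := by
    apply heq.1
    rw [pow_two, Subgroup.coe_mul, map_mul, hxX, ← map_mul, gX_sq, map_one, Subgroup.coe_one, map_one]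
  have hZ1 : xZ ≠ 1 := by
    intro h
    apply mk_Z_ne_one h2
    rw [← hxZ, h, Subgroup.coe_one, map_one]
  have hX1 : xX ≠ 1 := by
    intro h
    apply mk_X_ne_one h2
    rw [← hxX, h, Subgroup.coe_one, map_one]
  have hXZ : xX ≠ xZ := by
    intro h
    apply mk_X_ne_Z (F := F)
    rw [← hxX, ← hxZ, h]
  have hS4 : xS ^ 4 = 1 := by
    have : xS ^ 4 = (xS ^ 2) ^ 2 := by rw [← pow_mul]
    rw [this, hSS, hZZ]
  have hV4 : xV ^ 4 = 1 := by
    have : xV ^ 4 = (xV ^ 2) ^ 2 := by rw [← pow_mul]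
    rw [this, hVV, hXX]
  rcases dickson_trans p H₂ with h | ⟨k, ⟨e⟩⟩ | ⟨⟨e⟩⟩ | ⟨⟨e⟩⟩ | ⟨⟨e⟩⟩ | ⟨x₀, hx₀, huniq⟩ | ⟨x, hx, y, hy, hxy, htr⟩
  · -- cyclic
    exfalso
    have hcomm : xS * xV = xV * xS := by
      letI := IsCyclic.commGroup (α := H₂)
      exact mul_comm _ _
    have h3 := congrArg (fun x : H₂ => ProjectiveSpecialLinearGroup.toPGL (x : ProjectiveSpecialLinearGroup (Fin 2) F)) hcomm
    simp only [Subgroup.coe_mul, map_mul, hxS, hxV] at h3
    rw [← map_mul, ← map_mul] at h3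
    obtain ⟨u, -, hu⟩ := mk_eq_val h3
    exact SVVS i hi h2 u hu
  · -- dihedral
    exfalso
    have h3 := dihedral_key (e (xS * xV)) (e xS)
    rw [← map_pow, ← map_pow, ← map_mul, ← map_mul] at h3
    have h4 := congrArg (fun x : H₂ => ProjectiveSpecialLinearGroup.toPGL (x : ProjectiveSpecialLinearGroup (Fin 2) F))
      (e.injective h3)
    rw [hSS] at h4
    simp only [Subgroup.coe_mul, Subgroup.coe_pow, map_mul, map_pow, hxS, hxV, hxZ] at h4
    rw [← map_mul, ← map_pow, ← map_mul, ← map_mul] at h4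
    obtain ⟨u, -, hu⟩ := mk_eq_val h4
    exact SVZ i hi h2 u hu
  · exfalso
    have h3 := alt4_key (e xS) (by rw [← map_pow, hS4, map_one])
    rw [← map_pow, hSS] at h3
    exact hZ1 (e.injective (h3.trans (map_one e).symm))
  · -- `S₄`
    left
    intro g hg
    obtain ⟨xg, hxg⟩ := hat _ hg
    have key1 := perm4_key e xV xS xg hV4 (by rw [hVV]; exact hX1) hS4 (by rw [hSS]; exact hZ1)
      (by rw [hVV, hSS]; exact hXZ)
    have key2 := perm4_key e xS xV xg hS4 (by rw [hSS]; exact hZ1) hV4 (by rw [hVV]; exact hX1)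
      (by rw [hVV, hSS]; exact hXZ.symm)
    rw [hVV, hSS] at key1 key2
    have trans : ∀ (a b : GL (Fin 2) F) (xa xb : H₂),
        ProjectiveSpecialLinearGroup.toPGL (xa : ProjectiveSpecialLinearGroup (Fin 2) F) = ProjGenLinGroup.mk a →
        ProjectiveSpecialLinearGroup.toPGL (xb : ProjectiveSpecialLinearGroup (Fin 2) F) = ProjGenLinGroup.mk b →
        xg * xa * xg⁻¹ = xb → ∃ l : F, (g : Matrix (Fin 2) (Fin 2) F) * (a : Matrix (Fin 2) (Fin 2) F) =
          l • ((b : Matrix (Fin 2) (Fin 2) F) * (g : Matrix (Fin 2) (Fin 2) F)) := by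
      intro a b xa xb ha hb hab
      have h3 : xb * xg = xg * xa := by rw [← hab]; group
      have h4 := congrArg (fun x : H₂ => ProjectiveSpecialLinearGroup.toPGL (x : ProjectiveSpecialLinearGroup (Fin 2) F)) h3
      simp only [Subgroup.coe_mul, map_mul, ha, hb, hxg] at h4
      rw [← map_mul, ← map_mul] at h4
      obtain ⟨u, -, hu⟩ := mk_eq_val h4
      exact ⟨u, by rw [Units.val_mul, Units.val_mul] at hu; exact hu.symm⟩
    rintro m (rfl | rfl)
    · rcases key1 with h | h | h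
      · obtain ⟨l, hl⟩ := trans _ _ _ _ hxX hxX h
        exact ⟨l, mX F, Or.inl rfl, hl⟩
      · obtain ⟨l, hl⟩ := trans _ _ _ _ hxX hxZ h
        exact ⟨l, mZ F, Or.inr (Or.inl rfl), hl⟩
      · obtain ⟨l, hl⟩ := trans (gX F) (gX F * gZ F) xX (xX * xZ) hxX
          (by rw [Subgroup.coe_mul, map_mul, hxX, hxZ, map_mul]) h
        exact ⟨l, mX F * mZ F, Or.inr (Or.inr rfl), hl⟩
    · rcases key2 with h | h | h
      · obtain ⟨l, hl⟩ := trans _ _ _ _ hxZ hxZ h
        exact ⟨l, mZ F, Or.inr (Or.inl rfl), hl⟩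
      · obtain ⟨l, hl⟩ := trans _ _ _ _ hxZ hxX h
        exact ⟨l, mX F, Or.inl rfl, hl⟩
      · obtain ⟨l, hl⟩ := trans (gZ F) (gZ F * gX F) xZ (xZ * xX) hxZ
          (by rw [Subgroup.coe_mul, map_mul, hxX, hxZ, map_mul]) h
        refine ⟨-l, mX F * mZ F, Or.inr (Or.inr rfl), ?_⟩
        rw [mX_mZ, neg_mul, smul_neg, neg_smul, neg_neg]
        exact hl
  · exfalso
    have h3 := alt5_key (e xS) (by rw [← map_pow, hS4, map_one])
    rw [← map_pow, hSS] at h3
    exact hZ1 (e.injective (h3.trans (map_one e).symm))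
  · -- fixed point
    exfalso
    have hfix : ∀ x : H₂, pslPerm F (x : ProjectiveSpecialLinearGroup (Fin 2) F) x₀ = x₀ :=
      fun x => huniq _ (smul_mem_OpF p hx₀ x.2)
    obtain ⟨A, hA⟩ := exists_rep (xX : ProjectiveSpecialLinearGroup (Fin 2) F)
    obtain ⟨B, hB⟩ := exists_rep (xZ : ProjectiveSpecialLinearGroup (Fin 2) F)
    have hA1 := hxX
    have hB1 := hxZ
    rw [← hA, ProjectiveSpecialLinearGroup.toPGL_mk] at hA1
    rw [← hB, ProjectiveSpecialLinearGroup.toPGL_mk] at hB1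
    obtain ⟨u, hu0, hu⟩ := mk_eq_val hA1.symm
    obtain ⟨v, hv0, hv⟩ := mk_eq_val hB1.symm
    have a00 : A 0 0 = 0 := by have := congrFun (congrFun hu 0) 0; simpa [gX, mX] using this.symm
    have a01 : A 0 1 = u := by have := congrFun (congrFun hu 0) 1; simpa [gX, mX] using this.symm
    have a10 : A 1 0 = u := by have := congrFun (congrFun hu 1) 0; simpa [gX, mX] using this.symm
    have a11 : A 1 1 = 0 := by have := congrFun (congrFun hu 1) 1; simpa [gX, mX] using this.symm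
    have b00 : B 0 0 = v := by have := congrFun (congrFun hv 0) 0; simpa [gZ, mZ] using this.symm
    have b01 : B 0 1 = 0 := by have := congrFun (congrFun hv 0) 1; simpa [gZ, mZ] using this.symm
    have b10 : B 1 0 = 0 := by have := congrFun (congrFun hv 1) 0; simpa [gZ, mZ] using this.symm
    have b11 : B 1 1 = -v := by have := congrFun (congrFun hv 1) 1; simpa [gZ, mZ] using this.symm
    have f1 := hfix xX
    have f2 := hfix xZ
    rw [← hA, pslPerm_mk] at f1
    rw [← hB, pslPerm_mk] at f2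
    rcases em (x₀ = ∞) with h | h
    · rw [h, slHom_infty_iff, a10] at f1
      exact hu0 f1
    · obtain ⟨t, rfl⟩ := OnePoint.ne_infty_iff_exists.mp h
      have hf2 : t = 0 := by
        rw [slHom_coe, b10, b11, b00, b01] at f2
        simp only [zero_mul, zero_add, add_zero, neg_eq_zero, hv0, if_false, OnePoint.coe_eq_coe] at f2
        have h5 : v * t = - (v * t) := by
          field_simp at f2
          linear_combination (-v) * f2
        have h6 : 2 * (v * t) = 0 := by linear_combination h5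
        exact (mul_eq_zero.mp ((mul_eq_zero.mp h6).resolve_left h2)).resolve_left hv0
      rw [hf2, slHom_coe, a10, a11, mul_zero, add_zero, if_pos rfl] at f1
      exact OnePoint.infty_ne_coe _ f1
  · -- transitive
    right
    obtain ⟨c, k, h1, h3, h4⟩ := normal_form p H₂ hx hy hxy htr
    exact up_mem_of_normal hn hH c k (fun a ha => (hmem _).1 (h1 a ha)) (fun a ha => (hmem _).1 (h3 a ha))
      (fun g hg => h4 g ((hmem _).2 hg))

end Cfsg.Agent.H917.Dk
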