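import Cfsg.Agent.H917.Dk5

/-!
# Overgroups of the one-qubit Clifford group (helper917)
-/

set_option autoImplicit false
set_option linter.unusedSectionVars false
set_option linter.unusedVariables false

namespace Cfsg.Agent.H917.Dk

open Matrix Matrix.SpecialLinearGroup
open Cfsg.Agent.ClassicalGeometry.SplitTorus

/-- A finite extension in which every element of the base field is a square. -/
theorem exists_sqrt_ext.{u} (F : Type u) [Field F] [Finite F] :
    ∃ (K : Type u) (_ : Field K) (_ : Finite K) (f : F →+* K), ∀ a : F, IsSquare (f a) := by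
  classical
  let _ := Fintype.ofFinite F
  let P : Polynomial F := ∏ a : F, (Polynomial.X ^ 2 - Polynomial.C a)
  refine ⟨P.SplittingField, inferInstance, Module.finite_of_finite F, algebraMap F P.SplittingField, ?_⟩
  intro a
  have h1 : ((Polynomial.X ^ 2 - Polynomial.C a : Polynomial F).map (algebraMap F P.SplittingField)).Splits := by
    have h2 := Polynomial.SplittingField.splits P
    have hP0 : P.map (algebraMap F P.SplittingField) ≠ 0 := by
      rw [Polynomial.map_ne_zero_iff (algebraMap F P.SplittingField).injective]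
      exact Finset.prod_ne_zero_iff.2 fun b _ => Polynomial.X_pow_sub_C_ne_zero (by norm_num) b
    refine Polynomial.Splits.of_dvd h2 hP0 ?_
    exact Polynomial.map_dvd _ (Finset.dvd_prod_of_mem _ (Finset.mem_univ a))
  obtain ⟨r, hr⟩ := Polynomial.Splits.exists_eval_eq_zero h1 (by
    rw [Polynomial.degree_map, Polynomial.degree_X_pow_sub_C (by norm_num)]
    norm_num)
  refine ⟨r, ?_⟩
  simp at hr
  linear_combination - hr

variable {F : Type*} [Field F]

theorem map_val {K : Type*} [Field K] (f : F →+* K) (g : GL (Fin 2) F) :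
    ((GeneralLinearGroup.map f g : GL (Fin 2) K) : Matrix (Fin 2) (Fin 2) K) =
      (g : Matrix (Fin 2) (Fin 2) F).map f := rfl

/-- **Overgroups of the one-qubit Clifford group** in `GL₂(F)`, `i` in the prime field. -/
theorem cl2_cases [Finite F] (p : ℕ) [Fact p.Prime] [CharP F p] {i : F} {hi : i * i = -1}
    {h2 : (2 : F) ≠ 0} {n : ℕ} (hn : (n : F) = i) {H : Subgroup (GL (Fin 2) F)} (hH : Cl2 i hi h2 H) :
    (∀ g ∈ H, NormPauli (g : Matrix (Fin 2) (Fin 2) F)) ∨ toGL (up (1 : F)) ∈ H := by
  classical
  obtain ⟨K, iK, fK, f, hf⟩ := exists_sqrt_ext F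
  let _ : Fintype K := Fintype.ofFinite K
  have hfi : Function.Injective f := f.injective
  have : CharP K p := charP_of_injective_ringHom f.injective p
  have hi' : f i * f i = -1 := by rw [← map_mul, hi, map_neg, map_one]
  have h2' : (2 : K) ≠ 0 := by
    intro h
    apply h2
    apply hfi
    rw [map_zero, map_ofNat, h]
  have hn' : (n : K) = f i := by rw [← hn, map_natCast]
  set φ : GL (Fin 2) F →* GL (Fin 2) K := GeneralLinearGroup.map f with hφ
  set S : Subgroup (GL (Fin 2) K) := (GeneralLinearGroup.scalar (Fin 2) : Kˣ →* GL (Fin 2) K).range with hS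
  have hSc : S ≤ Subgroup.center (GL (Fin 2) K) := by
    rw [GeneralLinearGroup.center_eq_range_scalar]
  have hSn : S.Normal := ⟨fun s hs g => by
    have h3 := Subgroup.mem_center_iff.1 (hSc hs) g
    rw [h3, mul_assoc, mul_inv_cancel, mul_one]
    exact hs⟩
  set H₂ : Subgroup (GL (Fin 2) K) := H.map φ ⊔ S with hH₂
  have hmem : ∀ g ∈ H₂, ∃ h ∈ H, ∃ t : Kˣ, g = φ h * GeneralLinearGroup.scalar (Fin 2) t := by
    intro g hg
    rw [hH₂, Subgroup.mem_sup_of_normal_right] at hg
    obtain ⟨_, ⟨h, hh, rfl⟩, _, ⟨t, rfl⟩, rfl⟩ := hg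
    exact ⟨h, hh, t, rfl⟩
  have hle : ∀ h ∈ H, φ h ∈ H₂ := fun h hh => (le_sup_left : H.map φ ≤ H₂) ⟨h, hh, rfl⟩
  have hCl : Cl2 (f i) hi' h2' H₂ := by
    refine ⟨?_, ?_, ?_, ?_, fun t => (le_sup_right : S ≤ H₂) ⟨t, rfl⟩⟩
    · have : φ (gX F) = gX K := by
        apply Units.ext
        rw [hφ, map_val]
        ext a b
        fin_cases a <;> fin_cases b <;> simp [gX, mX]
      rw [← this]; exact hle _ hH.X
    · have : φ (gZ F) = gZ K := by
        apply Units.ext
        rw [hφ, map_val]
        ext a b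
        fin_cases a <;> fin_cases b <;> simp [gZ, mZ]
      rw [← this]; exact hle _ hH.Z
    · have : φ (gS i hi) = gS (f i) hi' := by
        apply Units.ext
        rw [hφ, map_val]
        ext a b
        fin_cases a <;> fin_cases b <;> simp [gS]
      rw [← this]; exact hle _ hH.S
    · have : φ (gV i hi h2) = gV (f i) hi' h2' := by
        apply Units.ext
        rw [hφ, map_val]
        ext a b
        have h22 : f 2 = 2 := map_ofNat f 2
        fin_cases a <;> fin_cases b <;> simp [gV, h22]
      rw [← this]; exact hle _ hH.V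
  have hsq : ∀ g ∈ H₂, IsSquare ((g : Matrix (Fin 2) (Fin 2) K).det) := by
    intro g hg
    obtain ⟨h, hh, t, rfl⟩ := hmem g hg
    rw [mul_scalar_val, Matrix.det_smul, Fintype.card_fin, hφ, map_val]
    have h3 : ((h : Matrix (Fin 2) (Fin 2) F).map f).det = f (h : Matrix (Fin 2) (Fin 2) F).det := by
      rw [RingHom.map_det]; rfl
    rw [h3, pow_two]
    exact IsSquare.mul (IsSquare.mul_self _) (hf _)
  rcases cl2_cases_sq p hn' hCl hsq with h | h
  · left
    intro g hg m hm
    have hm' : (m.map f = mX K ∨ m.map f = mZ K) := by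
      rcases hm with rfl | rfl
      · left; ext a b; fin_cases a <;> fin_cases b <;> simp [mX]
      · right; ext a b; fin_cases a <;> fin_cases b <;> simp [mZ]
    obtain ⟨l, y, hy, hly⟩ := h _ (hle g hg) _ hm'
    obtain ⟨y', hy', hyy⟩ : ∃ y' : Matrix (Fin 2) (Fin 2) F,
        (y' = mX F ∨ y' = mZ F ∨ y' = mX F * mZ F) ∧ y'.map f = y := by
      rcases hy with rfl | rfl | rfl
      · exact ⟨_, Or.inl rfl, by ext a b; fin_cases a <;> fin_cases b <;> simp [mX]⟩
      · exact ⟨_, Or.inr (Or.inl rfl), by ext a b; fin_cases a <;> fin_cases b <;> simp [mZ]⟩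
      · exact ⟨_, Or.inr (Or.inr rfl), by
          ext a b; fin_cases a <;> fin_cases b <;> simp [mX, mZ, Matrix.mul_apply, Fin.sum_univ_two]⟩
    subst hyy
    rw [hφ, map_val, ← Matrix.map_mul, ← Matrix.map_mul] at hly
    -- a nonzero entry of `y' g`
    have hne : ∃ a b, (y' * (g : Matrix (Fin 2) (Fin 2) F)) a b ≠ 0 := by
      by_contra hcon
      push Not at hcon
      have h0 : y' * (g : Matrix (Fin 2) (Fin 2) F) = 0 := by ext a b; exact hcon a b
      have h5 : y' = 0 := by
        calc y' = y' * (g : Matrix (Fin 2) (Fin 2) F) * ((g⁻¹ : GL (Fin 2) F) : Matrix (Fin 2) (Fin 2) F) := by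
              rw [mul_assoc, ← Units.val_mul, mul_inv_cancel, Units.val_one, mul_one]
          _ = 0 := by rw [h0, zero_mul]
      rcases hy' with h6 | h6 | h6
      · have := congrFun (congrFun (h6.symm.trans h5) 0) 1; simp [mX] at this
      · have := congrFun (congrFun (h6.symm.trans h5) 0) 0; simp [mZ] at this
      · have := congrFun (congrFun (h6.symm.trans h5) 1) 0; simp [mX, mZ] at this
    obtain ⟨a, b, hab⟩ := hne
    refine ⟨((g : Matrix (Fin 2) (Fin 2) F) * m) a b / (y' * (g : Matrix (Fin 2) (Fin 2) F)) a b, y', hy', ?_⟩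
    have hl : l = f (((g : Matrix (Fin 2) (Fin 2) F) * m) a b / (y' * (g : Matrix (Fin 2) (Fin 2) F)) a b) := by
      have h5 := congrFun (congrFun hly a) b
      rw [Matrix.map_apply, Matrix.smul_apply, Matrix.map_apply, smul_eq_mul] at h5
      rw [map_div₀, h5, mul_div_assoc, div_self, mul_one]
      exact fun h6 => hab (hfi (by rw [h6, map_zero]))
    ext c d
    apply hfi
    have h5 := congrFun (congrFun hly c) d
    rw [Matrix.map_apply, Matrix.smul_apply, Matrix.map_apply, smul_eq_mul] at h5
    rw [h5, hl, Matrix.smul_apply, smul_eq_mul, map_mul]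
  · right
    obtain ⟨h, hh, t, ht⟩ := hmem _ h
    have e0 := congrFun (congrFun (congrArg (fun g : GL (Fin 2) K => (g : Matrix (Fin 2) (Fin 2) K)) ht) 0) 0
    have e1 : ∀ a b, (toGL (up (1 : K)) : GL (Fin 2) K) a b = (t : K) * f (h a b) := by
      intro a b
      have := congrFun (congrFun (congrArg (fun g : GL (Fin 2) K => (g : Matrix (Fin 2) (Fin 2) K)) ht) a) b
      simp only [mul_scalar_val, Matrix.smul_apply, smul_eq_mul] at this
      exact this
    have h00 : (t : K) * f (h 0 0) = 1 := (e1 0 0).symm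
    have hh0 : h 0 0 ≠ 0 := by
      intro h0
      rw [h0, map_zero, mul_zero] at h00
      exact zero_ne_one h00
    have htf : (t : K) = f (h 0 0)⁻¹ := by
      rw [map_inv₀]
      exact eq_inv_of_mul_eq_one_left h00
    have hfin : toGL (up (1 : F)) = h * GeneralLinearGroup.scalar (Fin 2) (Units.mk0 _ (inv_ne_zero hh0)) := by
      apply Units.ext
      rw [mul_scalar_val]
      ext a b
      apply hfi
      rw [Matrix.smul_apply, smul_eq_mul, map_mul, Units.val_mk0, ← htf, ← e1 a b]
      fin_cases a <;> fin_cases b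
      · exact map_one f
      · exact map_one f
      · exact map_zero f
      · exact map_one f
    rw [hfin]
    exact H.mul_mem hh (hH.scalar _)

end Cfsg.Agent.H917.Dk
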